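import Cfsg.Agent.Lib.Icosa.AutFive

/-!
A finite group with a normal subgroup isomorphic to the alternating group of degree five.
-/

set_option autoImplicit false
set_option linter.style.haveILetI false

namespace Cfsg.Agent.Lib.JTwoPattern

open Subgroup

set_option synthInstance.maxSize 1024 in
set_option synthInstance.maxHeartbeats 200000 in
/-- The centralizer of a four-group of even permutations on five points. -/
lemma centralizer_even_four : ∀ a : Equiv.Perm (Fin 5), a * a = 1 → a ≠ 1 → Equiv.Perm.sign a = 1 →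
    ∀ b : Equiv.Perm (Fin 5), b * b = 1 → b ≠ 1 → b ≠ a → a * b = b * a → Equiv.Perm.sign b = 1 →
    ∀ σ : Equiv.Perm (Fin 5), σ * a = a * σ → σ * b = b * σ → σ = 1 ∨ σ = a ∨ σ = b ∨ σ = a * b := by
  decide +kernel

lemma pow_fifteen_alt_five : ∀ a : alternatingGroup (Fin 5), a * a = 1 ∨ a ^ 15 = 1 := by
  decide +kernel

/-- A product of two normal subgroups that meet trivially and fill the group. -/
lemma prod_equiv_of_inf {X : Type*} [Group X] [Finite X] {K N : Subgroup X} (hK : K.Normal) (hN : N.Normal)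
    (hd : K ⊓ N = ⊥) (hcard : Nat.card X ≤ Nat.card K * Nat.card N) :
    Nonempty (X ≃* ↥K × ↥N) ∧ ∀ x : X, ∃ a ∈ K, ∃ b ∈ N, a * b = x := by
  have hdis : Disjoint K N := disjoint_iff.mpr hd
  let f : ↥K × ↥N →* X := K.subtype.noncommCoprod N.subtype fun k n =>
    commute_of_normal_of_disjoint K N hK hN hdis k n k.2 n.2
  have hinj : Function.Injective f := by
    refine (injective_iff_map_eq_one f).mpr fun p hp => ?_
    have h : (p.1 : X) * p.2 = 1 := hp
    have h1 : (p.1 : X) = 1 := by
      refine disjoint_def.mp hdis p.1.2 ?_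
      rw [eq_inv_of_mul_eq_one_left h]
      exact inv_mem p.2.2
    rw [h1, one_mul] at h
    exact Prod.ext (Subtype.ext h1) (Subtype.ext h)
  have hbij : Function.Bijective f := hinj.bijective_of_nat_card_le (by rwa [Nat.card_prod])
  refine ⟨⟨(MulEquiv.ofBijective f hbij).symm⟩, fun x => ?_⟩
  obtain ⟨p, hp⟩ := hbij.2 x
  exact ⟨p.1, p.1.2, p.2, p.2.2, hp⟩

/-- The centralizer of such a subgroup, and the two possible indices. -/
lemma alt_five_normal {X : Type*} [Group X] [Finite X] (N : Subgroup X) [N.Normal]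
    (e : ↥N ≃* ↥(alternatingGroup (Fin 5))) :
    centralizer (N : Set X) ⊓ N = ⊥ ∧
    (Nat.card X = Nat.card (centralizer (N : Set X)) * 60 ∨ Nat.card X = Nat.card (centralizer (N : Set X)) * 120) ∧
    ∀ z w : X, z ∈ N → w ∈ N → z * z = 1 → w * w = 1 → z ≠ 1 → w ≠ 1 → w ≠ z → z * w = w * z →
      ∀ x : X, x * z = z * x → x * w = w * x →
        ∃ n ∈ ({1, z, w, z * w} : Set X), n⁻¹ * x ∈ centralizer (N : Set X) := by
  obtain ⟨f⟩ := Icosa.nonempty_perm_equiv
  let ρ : X →* Equiv.Perm (Fin 5) :=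
    (f.symm.toMonoidHom.comp (MulAut.congr e).toMonoidHom).comp MulAut.conjNormal
  have hρ : ∀ x, ρ x = 1 ↔ x ∈ centralizer (N : Set X) := by
    intro x
    simp only [ρ, MonoidHom.comp_apply, MulEquiv.coe_toMonoidHom, MulEquiv.map_eq_one_iff]
    constructor
    · intro h
      refine mem_centralizer_iff.mpr fun n hn => ?_
      have := congrArg Subtype.val (DFunLike.congr_fun h (⟨n, hn⟩ : ↥N))
      rw [MulAut.conjNormal_apply] at this
      exact (mul_inv_eq_iff_eq_mul.mp this).symm
    · intro h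
      refine MulEquiv.ext fun n => Subtype.ext ?_
      rw [MulAut.conjNormal_apply]
      exact mul_inv_eq_iff_eq_mul.mpr (mem_centralizer_iff.mp h n n.2).symm
  have hKN : centralizer (N : Set X) ⊓ N = ⊥ := by
    rw [eq_bot_iff_forall]
    rintro x ⟨hx, hxN⟩
    have h : e ⟨x, hxN⟩ ∈ center (alternatingGroup (Fin 5)) := mem_center_iff.mpr fun g => by
      have h1 : e.symm g * ⟨x, hxN⟩ = ⟨x, hxN⟩ * e.symm g :=
        Subtype.ext (mem_centralizer_iff.mp hx _ (e.symm g).2)
      have := congrArg e h1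
      simpa using this
    rw [Icosa.center_alt, mem_bot, MulEquiv.map_eq_one_iff] at h
    exact congrArg Subtype.val h
  have hker : ρ.ker = centralizer (N : Set X) := by ext x; exact hρ x
  have hN60 : Nat.card N = 60 := by rw [Nat.card_congr e.toEquiv, Icosa.card_alt]
  have hinjN : Function.Injective (ρ.comp N.subtype) :=
    (injective_iff_map_eq_one _).mpr fun n hn => Subtype.ext <|
      (eq_bot_iff_forall _).mp hKN _ ⟨(hρ _).mp hn, n.2⟩
  have hM : Nat.card (N.map ρ) = 60 := by
    rw [← hN60, ← N.range_subtype, MonoidHom.map_range, N.range_subtype]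
    exact (Nat.card_congr (MonoidHom.ofInjective hinjN).toEquiv).symm
  have hperm : Nat.card (Equiv.Perm (Fin 5)) = 120 := by
    rw [Nat.card_eq_fintype_card, Fintype.card_perm, Fintype.card_fin]; rfl
  have hA : N.map ρ = alternatingGroup (Fin 5) := by
    refine Equiv.Perm.eq_alternatingGroup_of_index_eq_two ?_
    have h := card_mul_index (N.map ρ)
    rw [hM, hperm] at h
    omega
  refine ⟨hKN, ?_, ?_⟩
  · have h1 : Nat.card X = Nat.card ρ.ker * Nat.card ρ.range := by
      rw [← index_ker, card_mul_index]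
    have h2 : Nat.card ρ.range ∣ 120 := hperm ▸ card_subgroup_dvd_card _
    have h3 : 60 ∣ Nat.card ρ.range := by
      rw [← hM]
      exact card_dvd_of_le (map_le_range ρ N)
    rw [hker] at h1
    obtain ⟨k, hk⟩ := h3
    rw [hk, show (120 : ℕ) = 60 * 2 by norm_num] at h2
    rcases (Nat.dvd_prime Nat.prime_two).mp (Nat.dvd_of_mul_dvd_mul_left (by norm_num) h2) with rfl | rfl
    · exact Or.inl (by rw [h1, hk])
    · exact Or.inr (by rw [h1, hk])
  · intro z w hz hw hz2 hw2 hz1 hw1 hwz hzw x hxz hxw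
    have hsign : ∀ n ∈ N, Equiv.Perm.sign (ρ n) = 1 := fun n hn =>
      Equiv.Perm.mem_alternatingGroup.mp (hA ▸ mem_map_of_mem ρ hn)
    have hne : ∀ a ∈ N, ∀ b ∈ N, a ≠ b → ρ a ≠ ρ b := fun a ha b hb hab h =>
      hab (congrArg Subtype.val (hinjN (show ρ.comp N.subtype ⟨a, ha⟩ = ρ.comp N.subtype ⟨b, hb⟩ from h)))
    have key := centralizer_even_four (ρ z) (by rw [← map_mul, hz2, map_one])
      (fun h => hne z hz 1 (one_mem N) hz1 (by rw [h, map_one])) (hsign z hz) (ρ w)
      (by rw [← map_mul, hw2, map_one]) (fun h => hne w hw 1 (one_mem N) hw1 (by rw [h, map_one]))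
      (hne w hw z hz hwz) (by rw [← map_mul, ← map_mul, hzw]) (hsign w hw) (ρ x)
      (by rw [← map_mul, ← map_mul, hxz]) (by rw [← map_mul, ← map_mul, hxw])
    have : ∀ n, ρ x = ρ n → n⁻¹ * x ∈ centralizer (N : Set X) := fun n h =>
      (hρ _).mp (by rw [map_mul, map_inv, h, inv_mul_cancel])
    rcases key with h | h | h | h
    · exact ⟨1, by simp, this 1 (by rw [h, map_one])⟩
    · exact ⟨z, by simp, this z h⟩
    · exact ⟨w, by simp, this w h⟩
    · exact ⟨z * w, by simp, this _ (by rw [h, map_mul])⟩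

end Cfsg.Agent.Lib.JTwoPattern
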