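import Mathlib.GroupTheory.Transfer
import Mathlib.GroupTheory.Sylow
import Mathlib.Tactic

/-!
A transfer argument: an abelian Sylow 2-subgroup of order 16 with a central involution outside an invariant
four-subgroup.
-/

set_option autoImplicit false
set_option linter.style.haveILetI false
set_option linter.unusedSectionVars false

namespace Cfsg.Agent.Lib.JTwoPattern

open scoped Classical
open Subgroup

variable {H : Type*} [Group H] [Finite H]

lemma exists_normal_index_four (P : Sylow 2 H) (hab : ∀ a ∈ (P : Subgroup H), ∀ b ∈ (P : Subgroup H), a * b = b * a)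
    (W : Subgroup H) (hWP : W ≤ P) (t : H) (ht : t ∈ (P : Subgroup H)) (htc : ∀ h : H, h * t = t * h)
    (ht2 : t * t = 1) (htW : t ∉ W) (hcard : Nat.card (P : Subgroup H) = 16) (hW4 : Nat.card W = 4)
    (hnorm : ∀ g ∈ Subgroup.normalizer ((P : Subgroup H) : Set H), ∀ u ∈ W, g * u * g⁻¹ ∈ W) :
    ∃ N : Subgroup H, N.Normal ∧ N ⊓ (P : Subgroup H) = W ∧ N.index = 4 := by
  haveI : Fact (Nat.Prime 2) := ⟨Nat.prime_two⟩
  haveI : IsMulCommutative (P : Subgroup H) := ⟨⟨fun a b => Subtype.ext (hab _ a.2 _ b.2)⟩⟩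
  set W' := W.subgroupOf (P : Subgroup H) with hW'
  haveI : W'.Normal := ⟨fun n hn g => by
    have h : (g : H) * n = n * g := hab _ g.2 _ n.2
    rw [hW', Subgroup.mem_subgroupOf] at hn ⊢
    push_cast
    rw [h, mul_inv_cancel_right]; exact hn⟩
  letI : CommGroup (↥(P : Subgroup H) ⧸ W') :=
    { (inferInstance : Group (↥(P : Subgroup H) ⧸ W')) with
      mul_comm := fun a b => by
        induction a using QuotientGroup.induction_on with
        | _ a =>
          induction b using QuotientGroup.induction_on with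
          | _ b => rw [← QuotientGroup.mk_mul, ← QuotientGroup.mk_mul]; exact congrArg _ (Subtype.ext (hab _ a.2 _ b.2)) }
  let φ : ↥(P : Subgroup H) →* ↥(P : Subgroup H) ⧸ W' := QuotientGroup.mk' W'
  have hq4 : Nat.card (↥(P : Subgroup H) ⧸ W') = 4 := by
    have h := Subgroup.card_eq_card_quotient_mul_card_subgroup W'
    rw [hcard, Nat.card_congr (Subgroup.subgroupOfEquivOfLe hWP).toEquiv, hW4] at h
    omega
  -- the subgroup `W⟨t⟩`
  let M : Subgroup H :=
    { carrier := {m | m ∈ W ∨ m * t ∈ W}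
      one_mem' := Or.inl (one_mem W)
      mul_mem' := by
        rintro a b (ha | ha) (hb | hb)
        · exact Or.inl (mul_mem ha hb)
        · exact Or.inr (by rw [mul_assoc]; exact mul_mem ha hb)
        · exact Or.inr (by rw [mul_assoc, htc b, ← mul_assoc]; exact mul_mem ha hb)
        · refine Or.inl ?_
          have e : a * b = a * t * (b * t) := by
            calc a * b = a * (t * t) * b := by rw [ht2, mul_one]
              _ = a * t * (t * b) := by group
              _ = a * t * (b * t) := by rw [htc b]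
          rw [e]; exact mul_mem ha hb
      inv_mem' := by
        rintro a (ha | ha)
        · exact Or.inl (inv_mem ha)
        · refine Or.inr ?_
          have ht' : t⁻¹ = t := inv_eq_of_mul_eq_one_left ht2
          rw [show a⁻¹ * t = (a * t)⁻¹ by rw [mul_inv_rev, ht', htc]]
          exact inv_mem ha }
  have hMP : M ≤ P := by
    rintro m (hm | hm)
    · exact hWP hm
    · have := mul_mem (hWP hm) (inv_mem ht)
      rwa [mul_inv_cancel_right] at this
  have hM8 : Nat.card M = 8 := by
    have hb : Function.Bijective (fun p : ↥W × Bool =>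
        (⟨if p.2 then (p.1 : H) * t else p.1, by
          split_ifs
          · right; rw [mul_assoc, ht2, mul_one]; exact p.1.2
          · exact Or.inl p.1.2⟩ : ↥M)) := by
      constructor
      · rintro ⟨u, a⟩ ⟨v, b⟩ h
        have h' := congrArg Subtype.val h
        simp only at h'
        cases a <;> cases b <;> simp only [Bool.false_eq_true, if_false, if_true] at h'
        · rw [Subtype.ext h']
        · exact absurd (show t = (v : H)⁻¹ * u by rw [h', inv_mul_cancel_left]) fun e =>
            htW (e ▸ mul_mem (inv_mem v.2) u.2)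
        · exact absurd (show t = (u : H)⁻¹ * v by rw [← h', inv_mul_cancel_left]) fun e =>
            htW (e ▸ mul_mem (inv_mem u.2) v.2)
        · rw [Subtype.ext (mul_right_cancel h')]
      · rintro ⟨m, hm | hm⟩
        · exact ⟨(⟨m, hm⟩, false), rfl⟩
        · exact ⟨(⟨m * t, hm⟩, true), Subtype.ext (by simp [mul_assoc, ht2])⟩
    rw [← Nat.card_congr (Equiv.ofBijective _ hb), Nat.card_prod, hW4, Nat.card_eq_fintype_card, Fintype.card_bool]
  have hM2 : (M.subgroupOf (P : Subgroup H)).index = 2 := by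
    have h := Subgroup.card_mul_index (M.subgroupOf (P : Subgroup H))
    rw [hcard, Nat.card_congr (Subgroup.subgroupOfEquivOfLe hMP).toEquiv, hM8] at h
    omega
  -- conjugate elements of `P` are congruent modulo `W`
  have hcong : ∀ a ∈ (P : Subgroup H), ∀ g : H, g⁻¹ * a * g ∈ (P : Subgroup H) → a⁻¹ * (g⁻¹ * a * g) ∈ W := by
    intro a ha g hg
    obtain ⟨n, hn, hne⟩ := P.conj_eq_normalizer_conj_of_mem a g ha hg
    rw [hne]
    set h := n⁻¹ with hh
    have hhN : h ∈ Subgroup.normalizer ((P : Subgroup H) : Set H) := inv_mem hn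
    rw [show n = h⁻¹ by rw [hh, inv_inv]]
    have hht : h * t * h⁻¹ = t := by rw [htc h, mul_inv_cancel_right]
    have hMinv : ∀ x, x ∈ M → h * x * h⁻¹ ∈ M := by
      rintro x (hx | hx)
      · exact Or.inl (hnorm h hhN x hx)
      · right
        have := hnorm h hhN _ hx
        rwa [show h * (x * t) * h⁻¹ = h * x * h⁻¹ * (h * t * h⁻¹) by group, hht] at this
    by_cases haM : a ∈ M
    · rcases haM with haW | haW
      · exact mul_mem (inv_mem haW) (hnorm h hhN a haW)
      · have h1 := hnorm h hhN _ haW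
        rw [show h * (a * t) * h⁻¹ = h * a * h⁻¹ * (h * t * h⁻¹) by group, hht] at h1
        have h2 := mul_mem (inv_mem haW) h1
        have e : (a * t)⁻¹ * (h * a * h⁻¹ * t) = a⁻¹ * (h * a * h⁻¹) := by
          calc (a * t)⁻¹ * (h * a * h⁻¹ * t) = t⁻¹ * (a⁻¹ * (h * a * h⁻¹) * t) := by group
            _ = t⁻¹ * (t * (a⁻¹ * (h * a * h⁻¹))) := by rw [htc]
            _ = _ := by rw [inv_mul_cancel_left]
        rwa [e] at h2
    have hstep : ∀ x, x ∈ (P : Subgroup H) → x ∉ M → a⁻¹ * x ∈ M := by
      intro x hx hxM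
      have h := (Subgroup.mul_mem_iff_of_index_two hM2 (a := (⟨a⁻¹, inv_mem ha⟩ : ↥(P : Subgroup H)))
        (b := (⟨x, hx⟩ : ↥(P : Subgroup H))))
      simp only [Subgroup.mem_subgroupOf, Subgroup.coe_mul] at h
      exact h.mpr (iff_of_false (fun h' => haM (by simpa using inv_mem h')) hxM)
    have hconjP : ∀ x, x ∈ (P : Subgroup H) → h * x * h⁻¹ ∈ (P : Subgroup H) := fun x hx =>
      (Subgroup.mem_normalizer_iff.mp hhN x).mp hx
    have hnotM : ∀ x, x ∉ M → h * x * h⁻¹ ∉ M := by
      intro x hx hxm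
      have hfin : ∃ m : ℕ, h⁻¹ = h ^ m := by
        obtain ⟨m, hm⟩ := (isOfFinOrder_of_finite h).mem_powers_iff_mem_zpowers.mpr (inv_mem (Subgroup.mem_zpowers h))
        exact ⟨m, hm.symm⟩
      obtain ⟨m, hm⟩ := hfin
      have hpow : ∀ (j : ℕ) y, y ∈ M → h ^ j * y * (h ^ j)⁻¹ ∈ M := by
        intro j
        induction j with
        | zero => intro y hy; simpa using hy
        | succ j ih =>
          intro y hy
          rw [show h ^ (j + 1) * y * (h ^ (j + 1))⁻¹ = h * (h ^ j * y * (h ^ j)⁻¹) * h⁻¹ by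
            rw [pow_succ']; group]
          exact hMinv _ (ih y hy)
      have h3 := hpow m _ hxm
      rw [← hm, show h⁻¹ * (h * x * h⁻¹) * h⁻¹⁻¹ = x by group] at h3
      exact hx h3
    rcases hstep _ (hconjP a ha) (hnotM a haM) with hgood | hbad
    · exact hgood
    exfalso
    -- otherwise every power moves `a` by the same parity
    have hiter : ∀ j : ℕ, a⁻¹ * (h ^ j * a * (h ^ j)⁻¹) * t ^ j ∈ W := by
      intro j
      induction j with
      | zero => simp
      | succ j ih =>
        have h1 := hnorm h hhN _ ih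
        have h2 := mul_mem hbad h1
        have e : a⁻¹ * (h * a * h⁻¹) * t * (h * (a⁻¹ * (h ^ j * a * (h ^ j)⁻¹) * t ^ j) * h⁻¹) =
            a⁻¹ * (h ^ (j + 1) * a * (h ^ (j + 1))⁻¹) * t ^ (j + 1) := by
          have hc : ∀ y, t * y = y * t := fun y => (htc y).symm
          have htj : h * t ^ j * h⁻¹ = t ^ j := by
            rw [((show Commute h t from htc h).pow_right j).eq, mul_inv_cancel_right]
          calc a⁻¹ * (h * a * h⁻¹) * t * (h * (a⁻¹ * (h ^ j * a * (h ^ j)⁻¹) * t ^ j) * h⁻¹)
              = a⁻¹ * (h * a * h⁻¹) * (t * (h * (a⁻¹ * (h ^ j * a * (h ^ j)⁻¹)) * h⁻¹ * (h * t ^ j * h⁻¹))) := by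
                group
            _ = a⁻¹ * (h * a * h⁻¹) * (h * (a⁻¹ * (h ^ j * a * (h ^ j)⁻¹)) * h⁻¹ * t ^ j * t) := by rw [htj, hc]
            _ = _ := by rw [pow_succ', pow_succ t]; group
        rwa [e] at h2
    obtain ⟨e, n, hn2, hord⟩ := Nat.exists_eq_pow_mul_and_not_dvd (orderOf_pos h).ne' 2 (by norm_num)
    have hpg : IsPGroup 2 (Subgroup.zpowers (h ^ n)) := by
      have h1 : (h ^ n) ^ 2 ^ e = 1 := by rw [← pow_mul, mul_comm, ← hord, pow_orderOf_eq_one]
      obtain ⟨k, -, hk⟩ := (Nat.dvd_prime_pow Nat.prime_two).mp (orderOf_dvd_of_pow_eq_one h1)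
      exact IsPGroup.of_card (n := k) (by rw [Nat.card_zpowers, hk])
    have hhP : h ^ n ∈ (P : Subgroup H) := by
      have hle : Subgroup.zpowers (h ^ n) ≤ Subgroup.normalizer ((P : Subgroup H) : Set H) :=
        Subgroup.zpowers_le.mpr (pow_mem hhN n)
      have hsup := IsPGroup.to_sup_of_normal_right' hpg P.isPGroup' hle
      have := P.is_maximal' hsup le_sup_right
      exact this.le (Subgroup.mem_sup_left (Subgroup.mem_zpowers _))
    have h1 := hiter n
    rw [hab _ hhP _ ha, mul_inv_cancel_right, inv_mul_cancel, one_mul] at h1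
    obtain ⟨l, rfl⟩ : Odd n := Nat.odd_iff.mpr (by omega)
    rw [pow_succ, pow_mul, pow_two, ht2, one_pow, one_mul] at h1
    exact htW h1
  -- the transfer
  haveI : Subgroup.FiniteIndex (P : Subgroup H) := inferInstance
  let τ := MonoidHom.transfer φ
  have hτ : ∀ a : ↥(P : Subgroup H), τ (a : H) = φ a ^ (P : Subgroup H).index := by
    intro a
    haveI := (P : Subgroup H).fintypeQuotientOfFiniteIndex
    rw [MonoidHom.transfer_eq_prod_quotient_orbitRel_zpowers_quot φ (a : H),
      Subgroup.index_eq_sum_minimalPeriod (P : Subgroup H) (a : H), ← Finset.prod_pow_eq_pow_sum]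
    refine Finset.prod_congr rfl fun q _ => ?_
    rw [← map_pow]
    symm
    refine QuotientGroup.eq.mpr ?_
    rw [hW', Subgroup.mem_subgroupOf]
    push_cast
    exact hcong _ (pow_mem a.2 _) _ (QuotientGroup.out_conj_pow_minimalPeriod_mem (P : Subgroup H) (a : H) q.out)
  have hodd : (Nat.card (↥(P : Subgroup H) ⧸ W')).Coprime (P : Subgroup H).index := by
    rw [hq4, show 4 = 2 ^ 2 by norm_num]
    exact (Nat.Prime.coprime_iff_not_dvd Nat.prime_two).mpr P.not_dvd_index |>.pow_left 2
  have hsurj : Function.Surjective τ := by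
    intro y
    obtain ⟨a, ha⟩ := QuotientGroup.mk'_surjective W' ((powCoprime hodd).symm y)
    exact ⟨a, by rw [hτ, show φ a = (powCoprime hodd).symm y from ha]; exact (powCoprime hodd).apply_symm_apply y⟩
  refine ⟨τ.ker, inferInstance, ?_, ?_⟩
  · ext a
    rw [Subgroup.mem_inf, MonoidHom.mem_ker]
    constructor
    · rintro ⟨h1, ha⟩
      rw [hτ ⟨a, ha⟩] at h1
      have h2 : φ ⟨a, ha⟩ = 1 := (powCoprime hodd).injective (h1.trans (one_pow _).symm)
      exact Subgroup.mem_subgroupOf.mp ((QuotientGroup.eq_one_iff (N := W') ⟨a, ha⟩).mp h2)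
    · intro ha
      refine ⟨?_, hWP ha⟩
      rw [hτ ⟨a, hWP ha⟩, show φ ⟨a, hWP ha⟩ = 1 from (QuotientGroup.eq_one_iff (N := W') _).mpr ha, one_pow]
  · rw [Subgroup.index_ker, MonoidHom.range_eq_top.mpr hsurj, Subgroup.card_top, hq4]

end Cfsg.Agent.Lib.JTwoPattern
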